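import Mathlib
set_option linter.all false

/-!
# Tensor products of bilinear forms

* `nondegenerate_tmul`: over a field, the tensor product of two non-degenerate forms on
  finite-dimensional spaces is non-degenerate.
* `exists_lagrangian_of_isAlt`: a non-degenerate alternating form on a space of dimension `2k`
  has a totally isotropic subspace of dimension `k`.
* `exists_similitude`: over a finite field of odd characteristic, a non-degenerate symmetric form on
  a space of even dimension has self-similitudes of every multiplier.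
* `exists_lagrangian_tmul`: the tensor product of two non-degenerate symmetric forms
  of even dimensions `2k`, `2l` over a finite field of odd characteristic has a totally isotropic
  subspace of dimension `2kl`.
-/

set_option autoImplicit false

namespace Cfsg.Agent.ClassicalGeometry.TensorForm

open TensorProduct

section Field

variable {F U W : Type*} [Field F] [AddCommGroup U] [Module F U] [AddCommGroup W] [Module F W]

/-- The tensor product of two separating-left forms on finite-dimensional spaces is
separating-left. -/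
theorem separatingLeft_tmul [FiniteDimensional F U] [FiniteDimensional F W]
    (B₁ : LinearMap.BilinForm F U) (B₂ : LinearMap.BilinForm F W)
    (h₁ : B₁.SeparatingLeft) (h₂ : B₂.SeparatingLeft) :
    LinearMap.SeparatingLeft (B₁.tmul B₂) := by
  rw [LinearMap.separatingLeft_iff_ker_eq_bot, LinearMap.ker_eq_bot] at h₁ h₂ ⊢
  have key : (B₁.tmul B₂ : U ⊗[F] W →ₗ[F] U ⊗[F] W →ₗ[F] F) =
      (TensorProduct.dualDistribEquiv F U W).toLinearMap ∘ₗ TensorProduct.map B₁ B₂ := by
    ext u w u' w'
    simp [mul_comm]
  rw [key]
  simp only [LinearMap.coe_comp, LinearEquiv.coe_coe]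
  exact (TensorProduct.dualDistribEquiv F U W).injective.comp
    (TensorProduct.map_injective_of_flat_flat B₁ B₂ h₁ h₂)

/-- Over a field, the tensor product of two non-degenerate forms is non-degenerate. -/
theorem nondegenerate_tmul [FiniteDimensional F U] [FiniteDimensional F W]
    (B₁ : LinearMap.BilinForm F U) (B₂ : LinearMap.BilinForm F W)
    (h₁ : B₁.Nondegenerate) (h₂ : B₂.Nondegenerate) :
    LinearMap.Nondegenerate (B₁.tmul B₂) := by
  refine ⟨separatingLeft_tmul B₁ B₂ h₁.1 h₂.1, ?_⟩
  have h := separatingLeft_tmul (LinearMap.flip B₁) (LinearMap.flip B₂)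
    (LinearMap.flip_separatingLeft.2 h₁.2) (LinearMap.flip_separatingLeft.2 h₂.2)
  rw [← LinearMap.flip_separatingLeft]
  have key : LinearMap.flip (B₁.tmul B₂) =
      LinearMap.BilinForm.tmul (LinearMap.flip B₁) (LinearMap.flip B₂) := by
    ext u w u' w'
    simp
  rw [key]
  exact h

/-- If `B₁` and `B₂` are alternating, then their tensor product is symmetric. -/
theorem isSymm_tmul_of_isAlt (B₁ : LinearMap.BilinForm F U) (B₂ : LinearMap.BilinForm F W)
    (h₁ : B₁.IsAlt) (h₂ : B₂.IsAlt) : LinearMap.IsSymm (B₁.tmul B₂) := by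
  rw [LinearMap.isSymm_iff_eq_flip]
  ext u w u' w'
  have e₁ : - B₁ u u' = B₁ u' u := LinearMap.IsAlt.neg h₁ u u'
  have e₂ : - B₂ w w' = B₂ w' w := LinearMap.IsAlt.neg h₂ w w'
  simp [← e₁, ← e₂]

/-- A non-degenerate alternating form on a space of dimension `2k`
has a totally isotropic subspace of dimension `k`. -/
theorem exists_lagrangian_of_isAlt [FiniteDimensional F U]
    (B : LinearMap.BilinForm F U) (h : B.Nondegenerate) (hA : B.IsAlt) (k : ℕ)
    (hk : Module.finrank F U = 2 * k) :
    ∃ L : Submodule F U, Module.finrank F L = k ∧ ∀ x ∈ L, ∀ y ∈ L, B x y = 0 := by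
  classical
  -- choose a totally isotropic subspace of maximal dimension
  let P : ℕ → Prop := fun n => ∃ L : Submodule F U, Module.finrank F L = n ∧
    ∀ x ∈ L, ∀ y ∈ L, B x y = 0
  have hP0 : P 0 := ⟨⊥, by simp, by
    intro x hx y hy
    rw [Submodule.mem_bot] at hx
    simp [hx]⟩
  have hbd : ∀ n, P n → n ≤ Module.finrank F U := by
    rintro n ⟨L, hL, -⟩
    rw [← hL]
    exact Submodule.finrank_le L
  obtain ⟨L, hL, hLi⟩ : P (Nat.findGreatest P (Module.finrank F U)) :=
    Nat.findGreatest_spec (P := P) (Nat.zero_le _) hP0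
  set n := Nat.findGreatest P (Module.finrank F U) with hn
  have hmax : ∀ m, P m → m ≤ n := fun m hm => Nat.le_findGreatest (hbd m hm) hm
  have hrefl : B.IsRefl := LinearMap.IsAlt.isRefl hA
  have hLle : L ≤ B.orthogonal L := by
    intro x hx
    rw [LinearMap.BilinForm.mem_orthogonal_iff]
    intro y hy
    exact hLi y hy x hx
  have horth : B.orthogonal L ≤ L := by
    intro v hv
    by_contra hvL
    rw [LinearMap.BilinForm.mem_orthogonal_iff] at hv
    have hPs : P (n + 1) := by
      refine ⟨L ⊔ Submodule.span F {v}, ?_, ?_⟩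
      · have hdis : Disjoint L (Submodule.span F {v}) := by
          rw [Submodule.disjoint_span_singleton']
          · exact hvL
          · rintro rfl
            exact hvL L.zero_mem
        have := Submodule.finrank_sup_add_finrank_inf_eq L (Submodule.span F {v})
        rw [hdis.eq_bot, finrank_bot, add_zero, hL, finrank_span_singleton] at this
        · exact this
        · rintro rfl
          exact hvL L.zero_mem
      · intro x hx y hy
        rw [Submodule.mem_sup] at hx hy
        obtain ⟨a, ha, b, hb, rfl⟩ := hx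
        obtain ⟨c, hc, d, hd, rfl⟩ := hy
        rw [Submodule.mem_span_singleton] at hb hd
        obtain ⟨s, rfl⟩ := hb
        obtain ⟨t, rfl⟩ := hd
        have e1 : B a c = 0 := hLi a ha c hc
        have e2 : B a v = 0 := hv a ha
        have e3 : B v c = 0 := hrefl _ _ (hv c hc)
        have e4 : B v v = 0 := hA v
        simp [e1, e2, e3, e4]
    have := hmax _ hPs
    omega
  have heq : B.orthogonal L = L := le_antisymm horth hLle
  have hdim := LinearMap.BilinForm.finrank_orthogonal h L
  rw [heq, hL, hk] at hdim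
  have hle := Submodule.finrank_le L
  rw [hL, hk] at hle
  refine ⟨L, ?_, hLi⟩
  rw [hL]
  omega

/-- If `B₁` vanishes on `L`, then `B₁ ⊗ B₂` vanishes on (the image of) `L ⊗ W`, which has
dimension `dim L * dim W`. -/
theorem exists_isotropic_tmul_of_left [FiniteDimensional F U] [FiniteDimensional F W]
    (B₁ : LinearMap.BilinForm F U) (B₂ : LinearMap.BilinForm F W)
    (L : Submodule F U) (hL : ∀ x ∈ L, ∀ y ∈ L, B₁ x y = 0) :
    ∃ X : Submodule F (U ⊗[F] W), Module.finrank F X = Module.finrank F L * Module.finrank F W ∧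
      ∀ x ∈ X, ∀ y ∈ X, (B₁.tmul B₂) x y = 0 := by
  refine ⟨LinearMap.range (LinearMap.rTensor W L.subtype), ?_, ?_⟩
  · rw [LinearMap.finrank_range_of_inj, Module.finrank_tensorProduct]
    exact Module.Flat.rTensor_preserves_injective_linearMap _ L.subtype_injective
  · rintro _ ⟨x, rfl⟩ _ ⟨y, rfl⟩
    induction x using TensorProduct.induction_on with
    | zero => simp
    | add a b ha hb => simp only [map_add, LinearMap.add_apply, ha, hb, add_zero]
    | tmul u w =>
      induction y using TensorProduct.induction_on with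
      | zero => simp
      | add a b ha hb => simp only [map_add, ha, hb, add_zero]
      | tmul u' w' =>
        simp [hL u u.2 u' u'.2]

end Field

section Finite

variable {F U W : Type*} [Field F] [AddCommGroup U] [Module F U] [AddCommGroup W] [Module F W]

/-- In a finite field of odd order, `s² + c t² = m` has a solution if `c ≠ 0`. -/
theorem exists_sq_add_mul_sq [Finite F] (h2 : (2 : F) ≠ 0) (c : F) (hc : c ≠ 0) (m : F) :
    ∃ s t : F, s ^ 2 + c * t ^ 2 = m := by
  have := Fintype.ofFinite F
  have hcard : Fintype.card F % 2 = 1 := by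
    apply FiniteField.odd_card_of_char_ne_two
    intro h
    apply h2
    have : CharP F 2 := h ▸ ringChar.charP F
    exact CharTwo.two_eq_zero
  obtain ⟨a, b, hab⟩ := FiniteField.exists_root_sum_quadratic
    (f := (Polynomial.X ^ 2 : Polynomial F))
    (g := Polynomial.C c * Polynomial.X ^ 2 - Polynomial.C m)
    (by simp) (by
      have : (Polynomial.C c * Polynomial.X ^ 2 - Polynomial.C m : Polynomial F) =
        Polynomial.C c * Polynomial.X ^ 2 + Polynomial.C 0 * Polynomial.X + Polynomial.C (-m) := by
        simp [sub_eq_add_neg]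
      rw [this]
      exact Polynomial.degree_quadratic hc) hcard
  refine ⟨a, b, ?_⟩
  simp at hab
  linear_combination hab

/-- A non-degenerate symmetric form on a space of dimension `2k` over a field with `2 ≠ 0` has an
orthogonal basis of anisotropic vectors indexed by `Fin 2 × Fin k`. -/
theorem exists_orthogonal_basis_two_mul [FiniteDimensional F U] (h2 : (2 : F) ≠ 0)
    (B : LinearMap.BilinForm F U) (h : B.Nondegenerate) (hS : B.IsSymm) (k : ℕ)
    (hk : Module.finrank F U = 2 * k) :
    ∃ b : Module.Basis (Fin 2 × Fin k) F U, (∀ i j, i ≠ j → B (b i) (b j) = 0) ∧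
      ∀ i, B (b i) (b i) ≠ 0 := by
  have : Invertible (2 : F) := invertibleOfNonzero h2
  obtain ⟨v, hv⟩ := LinearMap.BilinForm.exists_orthogonal_basis
    (LinearMap.BilinForm.isSymm_iff.1 hS)
  have hv' := hv
  rw [LinearMap.isOrthoᵢ_def] at hv'
  have hne := hv.not_isOrtho_basis_self_of_separatingLeft h.1
  let e : Fin (Module.finrank F U) ≃ Fin 2 × Fin k := (finCongr hk).trans finProdFinEquiv.symm
  refine ⟨v.reindex e, ?_, ?_⟩
  · intro i j hij
    rw [Module.Basis.reindex_apply, Module.Basis.reindex_apply]
    exact hv' _ _ (fun h => hij (e.symm.injective h))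
  · intro i
    rw [Module.Basis.reindex_apply]
    exact hne _

/-- Over a finite field of odd characteristic, a non-degenerate symmetric form on a space of even
dimension has self-similitudes of every multiplier `m`. -/
theorem exists_similitude [Finite F] [FiniteDimensional F U] (h2 : (2 : F) ≠ 0)
    (B : LinearMap.BilinForm F U) (h : B.Nondegenerate) (hS : B.IsSymm) (k : ℕ)
    (hk : Module.finrank F U = 2 * k) (m : F) :
    ∃ T : U →ₗ[F] U, ∀ x y, B (T x) (T y) = m * B x y := by
  obtain ⟨b, hb, hb'⟩ := exists_orthogonal_basis_two_mul h2 B h hS k hk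
  have hex : ∀ i : Fin k, ∃ st : F × F,
      st.1 ^ 2 + B (b (1, i)) (b (1, i)) / B (b (0, i)) (b (0, i)) * st.2 ^ 2 = m := by
    intro i
    obtain ⟨s, t, hst⟩ := exists_sq_add_mul_sq h2
      (B (b (1, i)) (b (1, i)) / B (b (0, i)) (b (0, i))) (div_ne_zero (hb' _) (hb' _)) m
    exact ⟨(s, t), hst⟩
  choose st hst using hex
  let T : U →ₗ[F] U := b.constr F (fun p =>
    if p.1 = 0 then (st p.2).1 • b (0, p.2) + (st p.2).2 • b (1, p.2)
    else (-(B (b (1, p.2)) (b (1, p.2)) / B (b (0, p.2)) (b (0, p.2)) * (st p.2).2)) • b (0, p.2)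
      + (st p.2).1 • b (1, p.2))
  have hT0 : ∀ i, T (b (0, i)) = (st i).1 • b (0, i) + (st i).2 • b (1, i) := by
    intro i
    rw [Module.Basis.constr_basis, if_pos rfl]
  have hT1 : ∀ i, T (b (1, i)) =
      (-(B (b (1, i)) (b (1, i)) / B (b (0, i)) (b (0, i)) * (st i).2)) • b (0, i)
      + (st i).1 • b (1, i) := by
    intro i
    rw [Module.Basis.constr_basis, if_neg (by simp)]
  refine ⟨T, ?_⟩
  have key : B.compl₁₂ T T = m • B := by
    refine b.ext fun p => b.ext fun q => ?_
    obtain ⟨p1, i⟩ := p
    obtain ⟨q1, j⟩ := q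
    rw [LinearMap.compl₁₂_apply, LinearMap.smul_apply, LinearMap.smul_apply, smul_eq_mul]
    by_cases hij : i = j
    · subst hij
      have h01 : B (b (0, i)) (b (1, i)) = 0 := hb _ _ (by simp)
      have h10 : B (b (1, i)) (b (0, i)) = 0 := hb _ _ (by simp)
      have ha := hb' (0, i)
      have hm := hst i
      fin_cases p1 <;> fin_cases q1
      · simp only [Fin.zero_eta, Fin.isValue, hT0]
        simp only [map_add, map_smul, LinearMap.add_apply, LinearMap.smul_apply, smul_eq_mul,
          h01, h10]
        rw [← hm]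
        field_simp
        ring
      · simp only [Fin.zero_eta, Fin.mk_one, Fin.isValue, hT0, hT1]
        simp only [map_add, map_smul, LinearMap.add_apply, LinearMap.smul_apply, smul_eq_mul,
          h01, h10]
        field_simp
        ring
      · simp only [Fin.zero_eta, Fin.mk_one, Fin.isValue, hT0, hT1]
        simp only [map_add, map_smul, LinearMap.add_apply, LinearMap.smul_apply, smul_eq_mul,
          h01, h10]
        field_simp
        ring
      · simp only [Fin.mk_one, Fin.isValue, hT1]
        simp only [map_add, map_smul, LinearMap.add_apply, LinearMap.smul_apply, smul_eq_mul,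
          h01, h10]
        rw [← hm]
        field_simp
        ring
    · have hz : ∀ x y : Fin 2, B (b (x, i)) (b (y, j)) = 0 := by
        intro x y
        exact hb _ _ (by simp [hij])
      fin_cases p1 <;> fin_cases q1 <;>
        simp [hT0, hT1, hz]
  intro x y
  have := congrArg (fun (f : LinearMap.BilinForm F U) => f x y) key
  simpa using this

/-- Over a finite field of odd characteristic, the tensor product of two non-degenerate
symmetric forms of even dimension has a totally isotropic subspace of half the dimension. -/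
theorem exists_lagrangian_tmul [Finite F] [FiniteDimensional F U] [FiniteDimensional F W]
    (h2 : (2 : F) ≠ 0)
    (B₁ : LinearMap.BilinForm F U) (B₂ : LinearMap.BilinForm F W)
    (h₁ : B₁.Nondegenerate) (h₂ : B₂.Nondegenerate) (hS₁ : B₁.IsSymm) (hS₂ : B₂.IsSymm)
    (k l : ℕ) (hU : Module.finrank F U = 2 * k) (hW : Module.finrank F W = 2 * l) :
    ∃ X : Submodule F (U ⊗[F] W), Module.finrank F X = 2 * k * l ∧
      ∀ x ∈ X, ∀ y ∈ X, (B₁.tmul B₂) x y = 0 := by
  classical
  obtain ⟨b, hb, hb'⟩ := exists_orthogonal_basis_two_mul h2 B₂ h₂ hS₂ l hW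
  have hex : ∀ j : Fin l, ∃ T : U →ₗ[F] U, ∀ x y, B₁ (T x) (T y) =
      (-(B₂ (b (1, j)) (b (1, j)) / B₂ (b (0, j)) (b (0, j)))) * B₁ x y := fun j =>
    exists_similitude h2 B₁ h₁ hS₁ k hU _
  choose T hT using hex
  let Φ : (Fin l → U) →ₗ[F] U ⊗[F] W :=
    ∑ j : Fin l, ((((TensorProduct.mk F U W).flip (b (0, j))) ∘ₗ T j +
      ((TensorProduct.mk F U W).flip (b (1, j)))) ∘ₗ LinearMap.proj j)
  have hΦ : ∀ f, Φ f = ∑ j : Fin l, (T j (f j) ⊗ₜ[F] b (0, j) + f j ⊗ₜ[F] b (1, j)) := by
    intro f
    simp [Φ]
  have hinj : Function.Injective Φ := by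
    rw [← LinearMap.ker_eq_bot, LinearMap.ker_eq_bot']
    intro f hf
    rw [hΦ] at hf
    funext i
    let P : U ⊗[F] W →ₗ[F] U :=
      (TensorProduct.rid F U).toLinearMap ∘ₗ LinearMap.lTensor U (b.coord (1, i))
    have hP : ∀ (u : U) (w : W), P (u ⊗ₜ[F] w) = (b.coord (1, i) w) • u := by
      intro u w
      simp [P]
    have := congrArg P hf
    rw [map_zero, map_sum] at this
    simp only [map_add, hP, Module.Basis.coord_apply, Module.Basis.repr_self,
      Finsupp.single_apply] at this
    rw [Finset.sum_eq_single i] at this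
    · simpa using this
    · intro j _ hji
      simp [hji]
    · intro hi
      exact absurd (Finset.mem_univ i) hi
  refine ⟨LinearMap.range Φ, ?_, ?_⟩
  · rw [LinearMap.finrank_range_of_inj hinj, Module.finrank_pi_fintype]
    simp [hU]
    ring
  · rintro _ ⟨f, rfl⟩ _ ⟨g, rfl⟩
    rw [hΦ, hΦ]
    rw [LinearMap.map_sum₂]
    refine Finset.sum_eq_zero fun i _ => ?_
    rw [map_sum]
    refine Finset.sum_eq_zero fun j _ => ?_
    by_cases hij : i = j
    · subst hij
      have h01 : B₂ (b (0, i)) (b (1, i)) = 0 := hb _ _ (by simp)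
      have h10 : B₂ (b (1, i)) (b (0, i)) = 0 := hb _ _ (by simp)
      have ha := hb' (0, i)
      simp only [map_add, LinearMap.add_apply, LinearMap.BilinForm.tensorDistrib_tmul, h01, h10, hT,
        smul_eq_mul]
      field_simp
      ring
    · have hz : ∀ x y : Fin 2, B₂ (b (x, i)) (b (y, j)) = 0 := by
        intro x y
        exact hb _ _ (by simp [hij])
      simp [hz]

end Finite

end Cfsg.Agent.ClassicalGeometry.TensorForm
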